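import Cfsg.Prelude.Def_Characters
import Cfsg.Agent.H4.Values
import Mathlib

set_option linter.all false
set_option autoImplicit false

/-! Unitary representations of finite groups. -/

namespace Cfsg.Agent.H2

open scoped ComplexConjugate

universe u v

/-- invariant inner product -/
theorem exists_invariant_core {G : Type u} [Group G] [Finite G] {V : Type v} [AddCommGroup V] [Module ℂ V]
    [FiniteDimensional ℂ V] (ρ : Representation ℂ G V) :
    ∃ cd : InnerProductSpace.Core ℂ V, ∀ g v w, cd.inner (ρ g v) (ρ g w) = cd.inner v w := by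
  classical
  have := Fintype.ofFinite G
  let b := Module.finBasis ℂ V
  let ip : V → V → ℂ := fun v w => ∑ g : G, ∑ i, conj (b.repr (ρ g v) i) * b.repr (ρ g w) i
  have hre : ∀ x, (ip x x).re = ∑ g : G, ∑ i, Complex.normSq (b.repr (ρ g x) i) := by
    intro x
    simp only [ip, Complex.re_sum]
    apply Finset.sum_congr rfl; intro g _; apply Finset.sum_congr rfl; intro i _
    rw [mul_comm, Complex.mul_conj]; simp
  refine ⟨{ inner := ip, conj_inner_symm := ?_, re_inner_nonneg := ?_, add_left := ?_, smul_left := ?_, definite := ?_ }, ?_⟩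
  · intro x y
    simp only [ip, map_sum, map_mul, Complex.conj_conj]
    apply Finset.sum_congr rfl; intro g _; apply Finset.sum_congr rfl; intro i _; ring
  · intro x
    show 0 ≤ (ip x x).re
    rw [hre]
    exact Finset.sum_nonneg (fun g _ => Finset.sum_nonneg (fun i _ => Complex.normSq_nonneg _))
  · intro x y z
    simp only [ip, map_add, Finsupp.add_apply, add_mul, Finset.sum_add_distrib]
  · intro x y r
    simp only [ip, map_smul, Finsupp.smul_apply, smul_eq_mul, map_mul, Finset.mul_sum]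
    apply Finset.sum_congr rfl; intro g _; apply Finset.sum_congr rfl; intro i _; ring
  · intro x hx
    have h1 : (ip x x).re = 0 := by
      have : ip x x = 0 := hx
      rw [this]; rfl
    rw [hre] at h1
    have h2 := (Finset.sum_eq_zero_iff_of_nonneg (fun g _ => Finset.sum_nonneg (fun i _ => Complex.normSq_nonneg _))).1 h1 1 (Finset.mem_univ _)
    have h3 : ∀ i, b.repr x i = 0 := by
      intro i
      have h4 := (Finset.sum_eq_zero_iff_of_nonneg (fun i _ => Complex.normSq_nonneg _)).1 h2 i (Finset.mem_univ _)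
      rw [map_one] at h4
      exact Complex.normSq_eq_zero.1 h4
    rw [← b.repr.map_eq_zero_iff]
    ext i; rw [h3 i]; rfl
  · intro h v w
    show ip (ρ h v) (ρ h w) = ip v w
    simp only [ip]
    apply Fintype.sum_equiv (Equiv.mulRight h)
    intro g
    apply Finset.sum_congr rfl; intro i _
    rw [Equiv.coe_mulRight, map_mul]; rfl

section Abelian

variable {H : Type u} [CommGroup H] [Finite H]
variable {V : Type v} [NormedAddCommGroup V] [InnerProductSpace ℂ V]
variable (σ : Representation ℂ H V)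

theorem finite_hom (H : Type u) [CommGroup H] [Finite H] : Finite (H →* ℂˣ) := by
  have : NeZero (Monoid.exponent H : ℂ) := by
    refine ⟨?_⟩
    exact_mod_cast (Monoid.exponent_ne_zero_of_finite (G := H))
  have : NeZero (Monoid.exponent H) := ⟨Monoid.exponent_ne_zero_of_finite (G := H)⟩
  exact Nat.finite_of_card_ne_zero (by rw [CommGroup.card_monoidHom_of_hasEnoughRootsOfUnity H ℂ]; exact Nat.card_pos.ne')

/-- projection on the isotypic component -/
noncomputable def proj [Fintype H] (lam : H →* ℂˣ) (v : V) : V :=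
  ((Nat.card H : ℂ)⁻¹) • ∑ h : H, ((lam h : ℂˣ) : ℂ)⁻¹ • σ h v

theorem proj_eigen [Fintype H] (lam : H →* ℂˣ) (v : V) (h : H) :
    σ h (proj σ lam v) = ((lam h : ℂˣ) : ℂ) • proj σ lam v := by
  unfold proj
  rw [map_smul, smul_comm]
  congr 1
  rw [map_sum, Finset.smul_sum]
  rw [← Equiv.sum_comp (Equiv.mulLeft h) (fun x => ((lam h : ℂˣ) : ℂ) • ((lam x : ℂˣ) : ℂ)⁻¹ • σ x v)]
  apply Finset.sum_congr rfl
  intro x _
  rw [map_smul, Equiv.coe_mulLeft, map_mul, map_mul, smul_smul, Units.val_mul]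
  have : ((lam h : ℂˣ) : ℂ) * (((lam h : ℂˣ) : ℂ) * ((lam x : ℂˣ) : ℂ))⁻¹ = ((lam x : ℂˣ) : ℂ)⁻¹ := by
    rw [mul_inv, ← mul_assoc, mul_inv_cancel₀ (Units.ne_zero _), one_mul]
  rw [this]; rfl

theorem sum_hom_eq [Fintype (H →* ℂˣ)] (h : H) (hh : h ≠ 1) : ∑ lam : H →* ℂˣ, ((lam h : ℂˣ) : ℂ)⁻¹ = 0 := by
  classical
  have : NeZero (Monoid.exponent H : ℂ) := by
    refine ⟨?_⟩
    exact_mod_cast (Monoid.exponent_ne_zero_of_finite (G := H))
  have : NeZero (Monoid.exponent H) := ⟨Monoid.exponent_ne_zero_of_finite (G := H)⟩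
  obtain ⟨μ, hμ⟩ := CommGroup.exists_apply_ne_one_of_hasEnoughRootsOfUnity H ℂ hh
  have h1 : ∑ lam : H →* ℂˣ, ((lam h : ℂˣ) : ℂ)⁻¹ = ((μ h : ℂˣ) : ℂ)⁻¹ * ∑ lam : H →* ℂˣ, ((lam h : ℂˣ) : ℂ)⁻¹ := by
    rw [Finset.mul_sum]
    rw [← Equiv.sum_comp (Equiv.mulLeft μ) (fun lam : H →* ℂˣ => ((lam h : ℂˣ) : ℂ)⁻¹)]
    apply Finset.sum_congr rfl
    intro lam _
    rw [Equiv.coe_mulLeft, MonoidHom.mul_apply, Units.val_mul, mul_inv]
  have h2 : (1 - ((μ h : ℂˣ) : ℂ)⁻¹) * ∑ lam : H →* ℂˣ, ((lam h : ℂˣ) : ℂ)⁻¹ = 0 := by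
    rw [sub_mul, one_mul, ← h1, sub_self]
  rcases mul_eq_zero.1 h2 with h3 | h3
  · exfalso; apply hμ
    apply Units.ext
    have : ((μ h : ℂˣ) : ℂ)⁻¹ = 1 := (sub_eq_zero.1 h3).symm
    exact inv_injective (this.trans inv_one.symm)
  · exact h3

theorem sum_proj [Fintype H] [Fintype (H →* ℂˣ)] (v : V) : ∑ lam : H →* ℂˣ, proj σ lam v = v := by
  classical
  have hcard : Nat.card (H →* ℂˣ) = Nat.card H := by
    have : NeZero (Monoid.exponent H : ℂ) := by
      refine ⟨?_⟩
      exact_mod_cast (Monoid.exponent_ne_zero_of_finite (G := H))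
    have : NeZero (Monoid.exponent H) := ⟨Monoid.exponent_ne_zero_of_finite (G := H)⟩
    exact CommGroup.card_monoidHom_of_hasEnoughRootsOfUnity H ℂ
  unfold proj
  rw [← Finset.smul_sum, Finset.sum_comm]
  have h1 : ∀ h : H, ∑ lam : H →* ℂˣ, ((lam h : ℂˣ) : ℂ)⁻¹ • σ h v = if h = 1 then (Nat.card H : ℂ) • v else 0 := by
    intro h
    rw [← Finset.sum_smul]
    by_cases hh : h = 1
    · subst hh
      rw [if_pos rfl]
      simp only [map_one, Units.val_one, inv_one, Finset.sum_const, Finset.card_univ, nsmul_eq_mul, mul_one]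
      rw [← Nat.card_eq_fintype_card, hcard]; rfl
    · rw [if_neg hh, sum_hom_eq h hh, zero_smul]
  rw [Finset.sum_congr rfl (fun h _ => h1 h), Finset.sum_ite_eq' Finset.univ (1 : H) (fun _ => (Nat.card H : ℂ) • v),
    if_pos (Finset.mem_univ _), smul_smul, inv_mul_cancel₀, one_smul]
  exact_mod_cast Nat.card_pos.ne'

theorem norm_hom (lam : H →* ℂˣ) (h : H) : ‖((lam h : ℂˣ) : ℂ)‖ = 1 := by
  have h1 : ((lam h : ℂˣ) : ℂ) ^ Nat.card H = 1 := by
    rw [← Units.val_pow_eq_pow_val, ← map_pow, pow_card_eq_one', map_one, Units.val_one]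
  exact Complex.norm_eq_one_of_pow_eq_one h1 Nat.card_pos.ne'

/-- eigenvectors for different eigenvalues of an isometry are orthogonal -/
theorem inner_eq_zero_of_eigen {T : V →ₗ[ℂ] V} (hT : ∀ v w, inner ℂ (T v) (T w) = inner ℂ v w) {a b : ℂ} (hab : a ≠ b)
    (ha : ‖a‖ = 1) {v w : V} (hv : T v = a • v) (hw : T w = b • w) : inner ℂ v w = 0 := by
  have h1 := hT v w
  rw [hv, hw, inner_smul_left, inner_smul_right] at h1
  have h2 : (conj a * b - 1) * inner ℂ v w = 0 := by linear_combination h1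
  rcases mul_eq_zero.1 h2 with h3 | h3
  · exfalso; apply hab
    have h4 : conj a * b = 1 := sub_eq_zero.1 h3
    have h5 : a * conj a = 1 := by
      rw [Complex.mul_conj, Complex.normSq_eq_norm_sq, ha]; norm_num
    calc a = a * (conj a * b) := by rw [h4, mul_one]
      _ = (a * conj a) * b := by ring
      _ = b := by rw [h5, one_mul]
  · exact h3

theorem inner_proj [Fintype H] (hσ : ∀ h v w, inner ℂ (σ h v) (σ h w) = inner ℂ v w) {lam mu : H →* ℂˣ} (hne : lam ≠ mu)
    (v w : V) : inner ℂ (proj σ lam v) (proj σ mu w) = 0 := by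
  obtain ⟨h, hh⟩ : ∃ h, lam h ≠ mu h := by
    by_contra hcon; push Not at hcon; exact hne (MonoidHom.ext hcon)
  exact inner_eq_zero_of_eigen (T := σ h) (hσ h) (fun e => hh (Units.ext e)) (norm_hom lam h) (proj_eigen σ lam v h) (proj_eigen σ mu w h)

theorem norm_sq_sum_of_orth {ι : Type*} (s : Finset ι) (f : ι → V) (hf : ∀ i ∈ s, ∀ j ∈ s, i ≠ j → inner ℂ (f i) (f j) = 0) :
    ‖∑ i ∈ s, f i‖ ^ 2 = ∑ i ∈ s, ‖f i‖ ^ 2 := by
  classical
  induction s using Finset.induction_on with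
  | empty => simp
  | insert a s ha ih =>
    rw [Finset.sum_insert ha, Finset.sum_insert ha, ← ih (fun i hi j hj => hf i (Finset.mem_insert_of_mem hi) j (Finset.mem_insert_of_mem hj))]
    rw [@norm_add_sq ℂ]
    have : inner ℂ (f a) (∑ i ∈ s, f i) = 0 := by
      rw [inner_sum]
      apply Finset.sum_eq_zero
      intro i hi
      exact hf a (Finset.mem_insert_self a s) i (Finset.mem_insert_of_mem hi) (fun h => ha (h ▸ hi))
    rw [this]; simp

/-- operator bound from eigenvalues -/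
theorem norm_sub_le_of_eigen [Fintype H] (hσ : ∀ h v w, inner ℂ (σ h v) (σ h w) = inner ℂ v w) (c : ℂ) (r : ℝ) (hr : 0 ≤ r) (h : H)
    (hb : ∀ lam : H →* ℂˣ, (∃ v : V, v ≠ 0 ∧ ∀ x, σ x v = ((lam x : ℂˣ) : ℂ) • v) → ‖((lam h : ℂˣ) : ℂ) - c‖ ≤ r) (v : V) :
    ‖σ h v - c • v‖ ≤ r * ‖v‖ := by
  classical
  have hfin : Finite (H →* ℂˣ) := by
    have : NeZero (Monoid.exponent H : ℂ) := by
      refine ⟨?_⟩
      exact_mod_cast (Monoid.exponent_ne_zero_of_finite (G := H))
    have : NeZero (Monoid.exponent H) := ⟨Monoid.exponent_ne_zero_of_finite (G := H)⟩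
    exact Nat.finite_of_card_ne_zero (by rw [CommGroup.card_monoidHom_of_hasEnoughRootsOfUnity H ℂ]; exact Nat.card_pos.ne')
  have := Fintype.ofFinite (H →* ℂˣ)
  have h1 : σ h v - c • v = ∑ lam : H →* ℂˣ, (((lam h : ℂˣ) : ℂ) - c) • proj σ lam v := by
    have h2 := sum_proj σ v
    calc σ h v - c • v = σ h (∑ lam : H →* ℂˣ, proj σ lam v) - c • (∑ lam : H →* ℂˣ, proj σ lam v) := by rw [h2]
      _ = _ := by
        rw [map_sum, Finset.smul_sum, ← Finset.sum_sub_distrib]
        apply Finset.sum_congr rfl; intro lam _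
        rw [proj_eigen, sub_smul]
  have h3 : ‖σ h v - c • v‖ ^ 2 ≤ (r * ‖v‖) ^ 2 := by
    rw [h1, norm_sq_sum_of_orth]
    · have h4 : ‖v‖ ^ 2 = ∑ lam : H →* ℂˣ, ‖proj σ lam v‖ ^ 2 := by
        conv_lhs => rw [← sum_proj σ v]
        apply norm_sq_sum_of_orth
        intro i _ j _ hij
        exact inner_proj σ hσ hij v v
      rw [mul_pow, h4, Finset.mul_sum]
      apply Finset.sum_le_sum
      intro lam _
      rw [norm_smul, mul_pow]
      by_cases hz : proj σ lam v = 0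
      · rw [hz]; simp
      · have h5 := hb lam ⟨_, hz, fun x => proj_eigen σ lam v x⟩
        apply mul_le_mul_of_nonneg_right _ (sq_nonneg _)
        exact pow_le_pow_left₀ (norm_nonneg _) h5 2
    · intro i _ j _ hij
      rw [inner_smul_left, inner_smul_right, inner_proj σ hσ hij]; simp
  exact (pow_le_pow_iff_left₀ (norm_nonneg _) (by positivity) two_ne_zero).1 h3

theorem card_weights_le [FiniteDimensional ℂ V] (hσ : ∀ h v w, inner ℂ (σ h v) (σ h w) = inner ℂ v w) :
    Nat.card {lam : H →* ℂˣ // ∃ v : V, v ≠ 0 ∧ ∀ x, σ x v = ((lam x : ℂˣ) : ℂ) • v} ≤ Module.finrank ℂ V := by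
  classical
  choose w hw using fun lam : {lam : H →* ℂˣ // ∃ v : V, v ≠ 0 ∧ ∀ x, σ x v = ((lam x : ℂˣ) : ℂ) • v} => lam.2
  have hli : LinearIndependent ℂ w := by
    apply linearIndependent_of_ne_zero_of_inner_eq_zero (fun i => (hw i).1)
    intro i j hij
    obtain ⟨h, hh⟩ : ∃ h, i.1 h ≠ j.1 h := by
      by_contra hcon; push Not at hcon; exact hij (Subtype.ext (MonoidHom.ext hcon))
    exact inner_eq_zero_of_eigen (T := σ h) (hσ h) (fun e => hh (Units.ext e)) (norm_hom i.1 h) ((hw i).2 h) ((hw j).2 h)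
  have hfin : Finite (H →* ℂˣ) := finite_hom H
  have := Fintype.ofFinite {lam : H →* ℂˣ // ∃ v : V, v ≠ 0 ∧ ∀ x, σ x v = ((lam x : ℂˣ) : ℂ) • v}
  rw [Nat.card_eq_fintype_card]
  exact hli.fintype_card_le_finrank

end Abelian

end Cfsg.Agent.H2
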