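import Cfsg.Prelude.Def_Characters
import Cfsg.Agent.H2.Unitary
import Mathlib

set_option linter.all false
set_option autoImplicit false

/-! Frobenius' theorem on abelian normal subgroups of finite linear groups. -/

namespace Cfsg.Agent.H2

open scoped ComplexConjugate

universe u v

/-- cos 30° -/
noncomputable def cc : ℝ := Real.sqrt 3 / 2

theorem cc_sq : cc ^ 2 = 3 / 4 := by
  unfold cc; rw [div_pow, Real.sq_sqrt (by norm_num)]; norm_num

theorem cc_gt : 1 / 2 < cc := by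
  unfold cc
  have : (1 : ℝ) < Real.sqrt 3 := by
    rw [Real.lt_sqrt (by norm_num)]; norm_num
  linarith

theorem cc_cos : Real.cos (Real.pi / 6) = cc := Real.cos_pi_div_six

theorem norm_exp_sub_cc {φ : ℝ} (h : |φ| < Real.pi / 6) : ‖Complex.exp (φ * Complex.I) - (cc : ℂ)‖ < 1 / 2 := by
  have h1 : cc < Real.cos φ := by
    rw [← cc_cos, ← Real.cos_abs φ]
    apply Real.cos_lt_cos_of_nonneg_of_le_pi (abs_nonneg φ) _ h
    have := Real.pi_pos; linarith
  have h2 : ‖Complex.exp (φ * Complex.I) - (cc : ℂ)‖ ^ 2 < (1 / 2) ^ 2 := by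
    rw [← Complex.normSq_eq_norm_sq, Complex.exp_mul_I, ← Complex.ofReal_cos, ← Complex.ofReal_sin]
    have : ((Real.cos φ : ℂ) + (Real.sin φ : ℂ) * Complex.I - (cc : ℂ)) = ⟨Real.cos φ - cc, Real.sin φ⟩ := by
      apply Complex.ext <;> simp [Complex.cos_ofReal_re, Complex.sin_ofReal_re]
    rw [this, Complex.normSq_mk]
    have h3 := Real.sin_sq_add_cos_sq φ
    have h4 := cc_sq
    have h5 := cc_gt
    nlinarith
  exact (pow_lt_pow_iff_left₀ (norm_nonneg _) (by norm_num) two_ne_zero).1 h2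

noncomputable def ang (z : ℂ) : ℝ := if 0 ≤ Complex.arg z then Complex.arg z else Complex.arg z + 2 * Real.pi

theorem ang_nonneg (z : ℂ) : 0 ≤ ang z := by
  unfold ang
  split_ifs with h
  · exact h
  · have := Complex.neg_pi_lt_arg z
    have := Real.pi_pos
    linarith

theorem ang_lt (z : ℂ) : ang z < 2 * Real.pi := by
  unfold ang
  have hp := Real.pi_pos
  split_ifs with h
  · have := Complex.arg_le_pi z
    linarith
  · push Not at h; linarith

theorem exp_ang {z : ℂ} (hz : ‖z‖ = 1) : Complex.exp (ang z * Complex.I) = z := by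
  have h1 : Complex.exp (Complex.arg z * Complex.I) = z := by
    have := Complex.norm_mul_exp_arg_mul_I z
    rw [hz] at this; simpa using this
  unfold ang
  split_ifs with h
  · exact h1
  · push_cast
    rw [add_mul, Complex.exp_add, h1, Complex.exp_two_pi_mul_I, mul_one]

noncomputable def box (z : ℂ) : Fin 12 := ⟨(⌊ang z * 6 / Real.pi⌋).toNat % 12, Nat.mod_lt _ (by norm_num)⟩

theorem box_spec {z w : ℂ} (hz : ‖z‖ = 1) (hw : ‖w‖ = 1) (h : box z = box w) : ‖z * w⁻¹ - (cc : ℂ)‖ < 1 / 2 := by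
  have hp := Real.pi_pos
  have hb : ∀ u : ℂ, 0 ≤ ⌊ang u * 6 / Real.pi⌋ ∧ ⌊ang u * 6 / Real.pi⌋ < 12 := by
    intro u
    constructor
    · apply Int.floor_nonneg.2
      have := ang_nonneg u
      positivity
    · rw [Int.floor_lt, div_lt_iff₀ hp]
      have := ang_lt u
      push_cast; linarith
  have h1 : ⌊ang z * 6 / Real.pi⌋ = ⌊ang w * 6 / Real.pi⌋ := by
    have h2 := congrArg Fin.val h
    simp only [box] at h2
    have h3 := hb z
    have h4 := hb w
    omega
  have h2 := Int.floor_le (ang z * 6 / Real.pi)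
  have h3 := Int.lt_floor_add_one (ang z * 6 / Real.pi)
  have h4 := Int.floor_le (ang w * 6 / Real.pi)
  have h5 := Int.lt_floor_add_one (ang w * 6 / Real.pi)
  rw [h1] at h2 h3
  have h6 : |ang z - ang w| < Real.pi / 6 := by
    rw [abs_lt]
    have e1 : ang z * 6 / Real.pi - ang w * 6 / Real.pi < 1 := by linarith
    have e2 : -1 < ang z * 6 / Real.pi - ang w * 6 / Real.pi := by linarith
    have e3 : ang z * 6 / Real.pi - ang w * 6 / Real.pi = (ang z - ang w) * 6 / Real.pi := by ring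
    rw [e3, div_lt_iff₀ hp] at e1
    rw [e3, lt_div_iff₀ hp] at e2
    constructor <;> linarith
  have h7 := norm_exp_sub_cc h6
  have h8 : Complex.exp ((ang z - ang w : ℝ) * Complex.I) = z * w⁻¹ := by
    push_cast
    rw [sub_mul, Complex.exp_sub, exp_ang hz, exp_ang hw, div_eq_mul_inv]
  rw [h8] at h7
  exact h7

section
variable {G : Type u} [Group G] [Finite G] {V : Type v} [NormedAddCommGroup V] [InnerProductSpace ℂ V]
  (ρ : Representation ℂ G V)

theorem rho_norm (hinv : ∀ g v w, inner ℂ (ρ g v) (ρ g w) = inner ℂ v w) (g : G) (v : V) : ‖ρ g v‖ = ‖v‖ := by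
  have h1 : ‖ρ g v‖ ^ 2 = ‖v‖ ^ 2 := by
    have := hinv g v v
    rw [inner_self_eq_norm_sq_to_K, inner_self_eq_norm_sq_to_K] at this
    exact_mod_cast this
  exact (pow_left_inj₀ (norm_nonneg _) (norm_nonneg _) two_ne_zero).1 h1

theorem comm_est (hinv : ∀ g v w, inner ℂ (ρ g v) (ρ g w) = inner ℂ v w) {a b : G} {c d : ℂ} {α β : ℝ} (hα : 0 ≤ α) (hβ : 0 ≤ β)
    (ha : ∀ v, ‖ρ a v - c • v‖ ≤ α * ‖v‖) (hb : ∀ v, ‖ρ b v - d • v‖ ≤ β * ‖v‖) (v : V) :
    ‖ρ (a * b * a⁻¹ * b⁻¹) v - v‖ ≤ 2 * α * β * ‖v‖ := by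
  set w := ρ (a⁻¹ * b⁻¹) v with hw
  have hwn : ‖w‖ = ‖v‖ := rho_norm ρ hinv _ _
  have h1 : ρ (a * b * a⁻¹ * b⁻¹) v = ρ a (ρ b w) := by
    rw [hw, ← Module.End.mul_apply, ← map_mul, ← Module.End.mul_apply, ← map_mul]
    congr 2; group
  have h2 : v = ρ b (ρ a w) := by
    rw [hw, ← Module.End.mul_apply, ← map_mul, ← Module.End.mul_apply, ← map_mul]
    have : b * a * (a⁻¹ * b⁻¹) = 1 := by group
    have h3 : b * (a * (a⁻¹ * b⁻¹)) = 1 := by group
    first
      | rw [this, map_one]; rfl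
      | rw [h3, map_one]; rfl
  have h3 : ρ (a * b * a⁻¹ * b⁻¹) v - v = (ρ a (ρ b w - d • w) - c • (ρ b w - d • w)) - (ρ b (ρ a w - c • w) - d • (ρ a w - c • w)) := by
    conv_lhs => rw [h1]; rw [h2]
    simp only [map_sub, map_smul, smul_sub, smul_smul]
    rw [mul_comm c d]
    abel
  rw [h3]
  calc _ ≤ ‖ρ a (ρ b w - d • w) - c • (ρ b w - d • w)‖ + ‖ρ b (ρ a w - c • w) - d • (ρ a w - c • w)‖ := norm_sub_le _ _
    _ ≤ α * ‖ρ b w - d • w‖ + β * ‖ρ a w - c • w‖ := add_le_add (ha _) (hb _)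
    _ ≤ α * (β * ‖w‖) + β * (α * ‖w‖) := add_le_add (mul_le_mul_of_nonneg_left (hb w) hα) (mul_le_mul_of_nonneg_left (ha w) hβ)
    _ = 2 * α * β * ‖v‖ := by rw [hwn]; ring

theorem inner_ne_zero_of_close {b : G} {d ε : ℝ} (hd : ε < d) (hb : ∀ v, ‖ρ b v - (d : ℂ) • v‖ ≤ ε * ‖v‖) (v : V) (hv : v ≠ 0) :
    inner ℂ v (ρ b v) ≠ 0 := by
  intro h
  have h1 : inner ℂ v (ρ b v - (d : ℂ) • v) = -((d : ℂ) * (‖v‖ : ℂ) ^ 2) := by
    rw [inner_sub_right, h, inner_smul_right, inner_self_eq_norm_sq_to_K, zero_sub]; rfl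
  have h2 := norm_inner_le_norm (𝕜 := ℂ) v (ρ b v - (d : ℂ) • v)
  have hvn : 0 < ‖v‖ := norm_pos_iff.2 hv
  have hε : 0 ≤ ε := by
    have := (norm_nonneg _).trans (hb v)
    by_contra hcon
    push Not at hcon
    nlinarith
  rw [h1, norm_neg, norm_mul, norm_pow, Complex.norm_real, Complex.norm_real, norm_norm, Real.norm_of_nonneg (by linarith : (0:ℝ) ≤ d)] at h2
  have h3 := hb v
  nlinarith [mul_le_mul_of_nonneg_left h3 hvn.le, mul_pos hvn hvn]

/-- the cyclic group generated by an element, as a commutative group -/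
@[reducible] noncomputable def zpCommGroup (a : G) : CommGroup (Subgroup.zpowers a) :=
  { (inferInstance : Group (Subgroup.zpowers a)) with
    mul_comm := by
      rintro ⟨x, hx⟩ ⟨y, hy⟩
      obtain ⟨i, rfl⟩ := Subgroup.mem_zpowers_iff.1 hx
      obtain ⟨j, rfl⟩ := Subgroup.mem_zpowers_iff.1 hy
      apply Subtype.ext
      show a ^ i * a ^ j = a ^ j * a ^ i
      rw [← zpow_add, ← zpow_add, add_comm] }

theorem frobenius_step (hinv : ∀ g v w, inner ℂ (ρ g v) (ρ g w) = inner ℂ v w) {a b : G}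
    (hcomm : a * (a * b * a⁻¹ * b⁻¹) = (a * b * a⁻¹ * b⁻¹) * a) (hb : ∀ v : V, v ≠ 0 → inner ℂ v (ρ b v) ≠ 0) (v : V) :
    ρ (a * b) v = ρ (b * a) v := by
  classical
  letI : CommGroup (Subgroup.zpowers a) := zpCommGroup a
  have := Fintype.ofFinite (Subgroup.zpowers a)
  have hfin : Finite ((Subgroup.zpowers a) →* ℂˣ) := finite_hom _
  have := Fintype.ofFinite ((Subgroup.zpowers a) →* ℂˣ)
  let σ : Representation ℂ (Subgroup.zpowers a) V := ρ.comp (Subgroup.zpowers a).subtype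
  have hσ : ∀ h v w, inner ℂ (σ h v) (σ h w) = inner ℂ v w := fun h v w => hinv h v w
  let a' : Subgroup.zpowers a := ⟨a, Subgroup.mem_zpowers a⟩
  have hσa : ∀ v, σ a' v = ρ a v := fun v => rfl
  -- x = b a b⁻¹ commutes with a
  set x := b * a * b⁻¹ with hx
  have hxa : x * a = a * x := by
    have h1 : x = (a * b * a⁻¹ * b⁻¹)⁻¹ * a := by rw [hx]; group
    have h2 : Commute a (a * b * a⁻¹ * b⁻¹) := hcomm
    have h3 : Commute a x := by rw [h1]; exact h2.inv_right.mul_right (Commute.refl a)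
    exact h3.symm
  have hprojx : ∀ (lam : (Subgroup.zpowers a) →* ℂˣ) (w : V), proj σ lam (ρ x w) = ρ x (proj σ lam w) := by
    intro lam w
    unfold proj
    rw [map_smul, map_sum]
    congr 1
    apply Finset.sum_congr rfl
    intro h _
    rw [map_smul]
    congr 1
    show ρ (h : G) (ρ x w) = ρ x (ρ (h : G) w)
    rw [← Module.End.mul_apply, ← map_mul, ← Module.End.mul_apply, ← map_mul]
    congr 2
    obtain ⟨i, hi⟩ := Subgroup.mem_zpowers_iff.1 h.2
    rw [← hi]
    have h3 : Commute a x := hxa.symm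
    exact (h3.zpow_left i)
  have key : ∀ (μ : ℂ) (v : V), ρ a v = μ • v → ρ a (ρ b v) = μ • ρ b v := by
    intro μ v hv
    set w := ρ b v with hw
    have hxw : ρ x w = μ • w := by
      rw [hw, hx, ← Module.End.mul_apply, ← map_mul]
      have : b * a * b⁻¹ * b = b * a := by group
      rw [this, map_mul, Module.End.mul_apply, hv, map_smul]
    have hlam : ∀ lam : (Subgroup.zpowers a) →* ℂˣ, ρ a (proj σ lam w) = μ • proj σ lam w := by
      intro lam
      set wl := proj σ lam w with hwl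
      have h1 : ρ a wl = ((lam a' : ℂˣ) : ℂ) • wl := proj_eigen σ lam w a'
      by_cases hμ : ((lam a' : ℂˣ) : ℂ) = μ
      · rw [h1, hμ]
      · have hxwl : ρ x wl = μ • wl := by
          rw [hwl, ← hprojx, hxw]
          unfold proj
          simp only [map_smul, Finset.smul_sum, smul_smul]
          apply Finset.sum_congr rfl; intro h _; congr 1; ring
        set u := ρ b⁻¹ wl with hu
        have hau : ρ a u = μ • u := by
          rw [hu, ← Module.End.mul_apply, ← map_mul]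
          have : a * b⁻¹ = b⁻¹ * x := by rw [hx]; group
          rw [this, map_mul, Module.End.mul_apply, hxwl, map_smul]
        have hbu : ρ b u = wl := by
          rw [hu, ← Module.End.mul_apply, ← map_mul, mul_inv_cancel, map_one]; rfl
        have h2 : inner ℂ wl u = 0 :=
          inner_eq_zero_of_eigen (T := ρ a) (hinv a) hμ (norm_hom lam a') h1 hau
        have h3 : inner ℂ u (ρ b u) = 0 := by
          rw [hbu, ← inner_conj_symm, h2, map_zero]
        have h4 : u = 0 := by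
          by_contra hne; exact hb u hne h3
        have h5 : wl = 0 := by rw [← hbu, h4, map_zero]
        rw [h5, map_zero, smul_zero]
    calc ρ a w = ρ a (∑ lam : (Subgroup.zpowers a) →* ℂˣ, proj σ lam w) := by rw [sum_proj σ w]
      _ = ∑ lam : (Subgroup.zpowers a) →* ℂˣ, μ • proj σ lam w := by
          rw [map_sum]; exact Finset.sum_congr rfl (fun lam _ => hlam lam)
      _ = μ • w := by rw [← Finset.smul_sum, sum_proj σ w]
  rw [map_mul, map_mul, Module.End.mul_apply, Module.End.mul_apply]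
  conv_lhs => rw [← sum_proj σ v]
  conv_rhs => rw [← sum_proj σ v]
  simp only [map_sum]
  apply Finset.sum_congr rfl
  intro lam _
  have h1 : ρ a (proj σ lam v) = ((lam a' : ℂˣ) : ℂ) • proj σ lam v := proj_eigen σ lam v a'
  rw [key _ _ h1, h1, map_smul]

/-- elements close to a scalar -/
def Small (g : G) : Prop := ∃ r : ℝ, 0 ≤ r ∧ r < 1 / 2 ∧ ∀ v, ‖ρ g v - (cc : ℂ) • v‖ ≤ r * ‖v‖

theorem Small.conj (hinv : ∀ g v w, inner ℂ (ρ g v) (ρ g w) = inner ℂ v w) {g : G} (hg : Small ρ g) (h : G) : Small ρ (h * g * h⁻¹) := by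
  obtain ⟨r, h0, h1, h2⟩ := hg
  refine ⟨r, h0, h1, fun v => ?_⟩
  set w := ρ h⁻¹ v with hw
  have hv : v = ρ h w := by rw [hw, ← Module.End.mul_apply, ← map_mul, mul_inv_cancel, map_one]; rfl
  have h3 : ρ (h * g * h⁻¹) v - (cc : ℂ) • v = ρ h (ρ g w - (cc : ℂ) • w) := by
    rw [map_sub, map_smul, ← hv, hw, map_mul, map_mul]; rfl
  rw [h3, rho_norm ρ hinv]
  have h4 : ‖w‖ = ‖v‖ := rho_norm ρ hinv _ _
  rw [← h4]; exact h2 w

theorem small_commute (hinv : ∀ g v w, inner ℂ (ρ g v) (ρ g w) = inner ℂ v w) (hf : ∀ g : G, (∀ v, ρ g v = v) → g = 1)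
    {a b : G} (ha : Small ρ a) (hb : Small ρ b) : a * b = b * a := by
  classical
  obtain ⟨r, hr0, hr1, hr⟩ := ha
  obtain ⟨r', hr0', hr1', hr'⟩ := hb
  have heq : ∀ g h : G, (∀ v, ρ g v = ρ h v) → g = h := by
    intro g h hgh
    have : g * h⁻¹ = 1 := by
      apply hf
      intro v
      rw [map_mul, Module.End.mul_apply, hgh, ← Module.End.mul_apply, ← map_mul, mul_inv_cancel, map_one]; rfl
    exact mul_inv_eq_one.1 this
  let bk : ℕ → G := fun k => Nat.rec b (fun _ x => a * x * a⁻¹ * x⁻¹) k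
  have hbk0 : bk 0 = b := rfl
  have hbks : ∀ k, bk (k + 1) = a * bk k * a⁻¹ * (bk k)⁻¹ := fun k => rfl
  have hest : ∀ k, ∀ v, ‖ρ (bk (k + 1)) v - v‖ ≤ (2 * r) ^ k * (2 * r * r') * ‖v‖ := by
    intro k
    induction k with
    | zero =>
      intro v
      rw [hbks, hbk0]
      have := comm_est ρ hinv hr0 hr0' hr hr' v
      simpa using this
    | succ k ih =>
      intro v
      rw [hbks (k + 1)]
      have h1 : ∀ v, ‖ρ (bk (k + 1)) v - (1 : ℂ) • v‖ ≤ ((2 * r) ^ k * (2 * r * r')) * ‖v‖ := by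
        intro v; rw [one_smul]; exact ih v
      have := comm_est ρ hinv hr0 (by positivity) hr h1 v
      refine this.trans (le_of_eq ?_)
      rw [pow_succ]; ring
  have h2r : 2 * r < 1 := by linarith
  have hC : 2 * r * r' < 1 / 2 := by nlinarith
  have hclose : ∀ k, ∀ v : V, v ≠ 0 → inner ℂ v (ρ (bk k) v) ≠ 0 := by
    intro k
    cases k with
    | zero =>
      intro v hv
      exact inner_ne_zero_of_close ρ (lt_trans hr1' cc_gt) hr' v hv
    | succ k =>
      intro v hv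
      refine inner_ne_zero_of_close ρ (d := 1) (ε := (2 * r) ^ k * (2 * r * r')) ?_ ?_ v hv
      · have : (2 * r) ^ k ≤ 1 := pow_le_one₀ (by positivity) h2r.le
        have h0 : 0 ≤ 2 * r * r' := by positivity
        nlinarith
      · intro v; rw [Complex.ofReal_one, one_smul]; exact hest k v
  -- some term is trivial
  have hex : ∃ k, bk (k + 1) = 1 := by
    by_contra hcon
    push Not at hcon
    have hne : Nonempty {g : G // g ≠ 1} := ⟨⟨bk 1, hcon 0⟩⟩
    have hv : ∀ g : {g : G // g ≠ 1}, ∃ v : V, ρ g v ≠ v := by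
      intro g
      by_contra h; push Not at h
      exact g.2 (hf g h)
    choose w hw using hv
    obtain ⟨g0, hg0⟩ := Finite.exists_min (fun g : {g : G // g ≠ 1} => ‖ρ g (w g) - w g‖ / ‖w g‖)
    have hw0 : ∀ g, w g ≠ 0 := by
      intro g h; apply hw g; rw [h, map_zero]
    have hpos : 0 < ‖ρ g0 (w g0) - w g0‖ / ‖w g0‖ :=
      div_pos (norm_pos_iff.2 (sub_ne_zero.2 (hw g0))) (norm_pos_iff.2 (hw0 g0))
    obtain ⟨k, hk⟩ := exists_pow_lt_of_lt_one hpos h2r
    have h3 := hg0 ⟨bk (k + 1), hcon k⟩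
    have h4 := hest k (w ⟨bk (k + 1), hcon k⟩)
    have h5 : ‖ρ (bk (k + 1)) (w ⟨bk (k + 1), hcon k⟩) - w ⟨bk (k + 1), hcon k⟩‖ / ‖w ⟨bk (k + 1), hcon k⟩‖ ≤ (2 * r) ^ k * (2 * r * r') := by
      rw [div_le_iff₀ (norm_pos_iff.2 (hw0 _))]; exact h4
    have h6 : (2 * r) ^ k * (2 * r * r') ≤ (2 * r) ^ k := by
      apply mul_le_of_le_one_right (by positivity); linarith
    have h7 : ‖ρ g0 (w g0) - w g0‖ / ‖w g0‖ ≤ (2 * r) ^ k := (h3.trans h5).trans h6
    exact absurd hk (not_lt.2 h7)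
  obtain ⟨k, hk⟩ := hex
  have hP : ∀ k, a * bk k = bk k * a → a * bk 0 = bk 0 * a := by
    intro k
    induction k with
    | zero => intro h; exact h
    | succ k ih =>
      intro h
      apply ih
      apply heq
      intro v
      apply frobenius_step ρ hinv _ (hclose k) v
      rw [hbks] at h
      exact h
  have h1 : a * bk k = bk k * a := by
    rw [hbks] at hk
    have h2 : a * bk k * a⁻¹ = bk k := mul_inv_eq_one.1 hk
    exact mul_inv_eq_iff_eq_mul.1 h2
  exact hP k h1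

theorem frobenius_twelve [FiniteDimensional ℂ V] (hinv : ∀ g v w, inner ℂ (ρ g v) (ρ g w) = inner ℂ v w)
    (hf : ∀ g : G, (∀ v, ρ g v = v) → g = 1) :
    ∃ A : Subgroup G, A.Normal ∧ (∀ x ∈ A, ∀ y ∈ A, x * y = y * x) ∧
      ∀ H : Subgroup G, (∀ x ∈ H, ∀ y ∈ H, x * y = y * x) → (A.subgroupOf H).index ≤ 12 ^ (Module.finrank ℂ V) := by
  classical
  let A : Subgroup G := Subgroup.normalClosure {g | Small ρ g}
  have hAgen : A = Subgroup.closure {g | Small ρ g} := by
    apply le_antisymm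
    · show Subgroup.closure (Group.conjugatesOfSet {g | Small ρ g}) ≤ _
      apply Subgroup.closure_mono
      intro x hx
      obtain ⟨g, hg, hgx⟩ := Group.mem_conjugatesOfSet_iff.1 hx
      obtain ⟨c, rfl⟩ := isConj_iff.1 hgx
      exact Small.conj ρ hinv hg c
    · rw [Subgroup.closure_le]; exact Subgroup.subset_normalClosure
  refine ⟨A, Subgroup.normalClosure_normal, ?_, ?_⟩
  · have h1 : ∀ x, Small ρ x → ∀ y ∈ A, x * y = y * x := by
      intro x hx y hy
      have h2 : A ≤ Subgroup.centralizer ({x} : Set G) := by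
        rw [hAgen, Subgroup.closure_le]
        intro z hz
        rw [SetLike.mem_coe, Subgroup.mem_centralizer_singleton_iff]
        exact small_commute ρ hinv hf hz hx
      exact (Subgroup.mem_centralizer_singleton_iff.1 (h2 hy)).symm
    intro x hx y hy
    have h2 : A ≤ Subgroup.centralizer ({y} : Set G) := by
      rw [hAgen, Subgroup.closure_le]
      intro z hz
      rw [SetLike.mem_coe, Subgroup.mem_centralizer_singleton_iff]
      exact h1 z hz y hy
    exact Subgroup.mem_centralizer_singleton_iff.1 (h2 hx)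
  · intro H hH
    letI : CommGroup H := { (inferInstance : Group H) with mul_comm := fun x y => Subtype.ext (hH x x.2 y y.2) }
    have := Fintype.ofFinite H
    have hfin : Finite (H →* ℂˣ) := finite_hom H
    let σ : Representation ℂ H V := ρ.comp H.subtype
    have hσ : ∀ h v w, inner ℂ (σ h v) (σ h w) = inner ℂ v w := fun h v w => hinv h v w
    let Λ := {lam : H →* ℂˣ // ∃ v : V, v ≠ 0 ∧ ∀ x, σ x v = ((lam x : ℂˣ) : ℂ) • v}
    have hΛ : Nat.card Λ ≤ Module.finrank ℂ V := card_weights_le σ hσ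
    have := Fintype.ofFinite Λ
    let F : H → (Λ → Fin 12) := fun h lam => box ((lam.1 h : ℂˣ) : ℂ)
    have hF : ∀ h h' : H, F h = F h' → ((h * h'⁻¹ : H) : G) ∈ A := by
      intro h h' hhh
      apply Subgroup.subset_normalClosure
      have hb : ∀ lam : Λ, ‖((lam.1 (h * h'⁻¹) : ℂˣ) : ℂ) - (cc : ℂ)‖ < 1 / 2 := by
        intro lam
        have h1 := box_spec (norm_hom lam.1 h) (norm_hom lam.1 h') (congrFun hhh lam)
        rw [map_mul, map_inv, Units.val_mul, Units.val_inv_eq_inv_val]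
        exact h1
      obtain ⟨r, hr0, hr1, hr⟩ : ∃ r : ℝ, 0 ≤ r ∧ r < 1 / 2 ∧ ∀ lam : Λ, ‖((lam.1 (h * h'⁻¹) : ℂˣ) : ℂ) - (cc : ℂ)‖ ≤ r := by
        rcases isEmpty_or_nonempty Λ with he | hne
        · exact ⟨0, le_rfl, by norm_num, fun lam => he.elim lam⟩
        · obtain ⟨l0, hl0⟩ := Finite.exists_max (fun lam : Λ => ‖((lam.1 (h * h'⁻¹) : ℂˣ) : ℂ) - (cc : ℂ)‖)
          exact ⟨_, norm_nonneg _, hb l0, hl0⟩
      refine ⟨r, hr0, hr1, ?_⟩
      intro v
      exact norm_sub_le_of_eigen σ hσ (cc : ℂ) r hr0 (h * h'⁻¹) (fun lam hlam => hr ⟨lam, hlam⟩) v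
    have hinj : Function.Injective (fun q : H ⧸ A.subgroupOf H => F q.out) := by
      intro q q' hqq
      have h1 := hF _ _ hqq
      rw [← QuotientGroup.out_eq' q, ← QuotientGroup.out_eq' q', QuotientGroup.eq, Subgroup.mem_subgroupOf]
      have h2 : (q.out)⁻¹ * q'.out = (q.out * (q'.out)⁻¹)⁻¹ := by
        rw [mul_inv_rev, inv_inv, mul_comm]
      rw [h2]
      exact A.inv_mem h1
    have h1 := Nat.card_le_card_of_injective _ hinj
    rw [Subgroup.index_eq_card]
    refine h1.trans ?_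
    rw [Nat.card_eq_fintype_card, Fintype.card_fun, Fintype.card_fin, ← Nat.card_eq_fintype_card]
    exact Nat.pow_le_pow_right (by norm_num) hΛ

end

/-- Version without a given inner product. -/
theorem frobenius_twelve' {G : Type u} [Group G] [Finite G] {V : Type v} [AddCommGroup V] [Module ℂ V]
    [FiniteDimensional ℂ V] (ρ : Representation ℂ G V) (hf : ∀ g : G, (∀ v, ρ g v = v) → g = 1) :
    ∃ A : Subgroup G, A.Normal ∧ (∀ x ∈ A, ∀ y ∈ A, x * y = y * x) ∧
      ∀ H : Subgroup G, (∀ x ∈ H, ∀ y ∈ H, x * y = y * x) → (A.subgroupOf H).index ≤ 12 ^ (Module.finrank ℂ V) := by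
  obtain ⟨cd, hcd⟩ := exists_invariant_core ρ
  letI i1 : NormedAddCommGroup V := cd.toNormedAddCommGroup
  letI i2 : InnerProductSpace ℂ V := InnerProductSpace.ofCore cd.toCore
  exact frobenius_twelve ρ hcd hf

end Cfsg.Agent.H2
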