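import Mathlib

/-! Orbit counting lemmas, helper2. -/

set_option autoImplicit false

namespace Cfsg.Agent.H2

open Subgroup

theorem dvd_card_of_forall_orbit {G X : Type*} [Group G] [MulAction G X] [Finite X] (d : ℕ)
    (h : ∀ x : X, d ∣ Nat.card (MulAction.orbit G x)) : d ∣ Nat.card X := by
  classical
  rw [Nat.card_congr (MulAction.selfEquivSigmaOrbits' G X)]
  have := Fintype.ofFinite (MulAction.orbitRel.Quotient G X)
  rw [Nat.card_sigma]
  apply Finset.dvd_sum
  intro ω _
  induction ω using Quotient.inductionOn' with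
  | h x => exact h x

/-- for a Sylow `r`-subgroup `R` of `A`, the `r`-part of `|A : S|` divides `|R : R ∩ S|` -/
theorem prime_pow_dvd_relIndex_sylow {A : Type*} [Group A] [Finite A] {r : ℕ} [Fact r.Prime] (R : Sylow r A)
    (S : Subgroup A) {e : ℕ} (h : r ^ e ∣ S.index) : r ^ e ∣ S.relIndex (R : Subgroup A) := by
  have hr : r.Prime := Fact.out
  obtain ⟨a, ha⟩ := IsPGroup.iff_card.1 (R.2.to_le (inf_le_right : S ⊓ (R : Subgroup A) ≤ R))
  have h1 : r ^ a ∣ Nat.card S := ha ▸ Subgroup.card_dvd_of_le inf_le_left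
  have h2 : r ^ (a + e) ∣ Nat.card A := by
    rw [← Subgroup.card_mul_index S, pow_add]
    exact Nat.mul_dvd_mul h1 h
  have h3 := R.pow_dvd_card_of_pow_dvd_card h2
  have h4 : Nat.card ↥(S ⊓ (R : Subgroup A)) * S.relIndex (R : Subgroup A) = Nat.card R := by
    rw [← relIndex_bot_left, ← inf_relIndex_right S (R : Subgroup A)]
    show _ = Nat.card (R : Subgroup A)
    rw [← relIndex_bot_left]
    exact relIndex_mul_relIndex _ _ _ bot_le inf_le_right
  rw [ha] at h4
  rw [← h4, pow_add] at h3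
  exact Nat.dvd_of_mul_dvd_mul_left (pow_pos hr.pos a) h3

end Cfsg.Agent.H2
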