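import Mathlib
import Cfsg.Agent.H1.Basic

/-! Endomorphisms of order `p` of elementary abelian `p`-groups, helper2. -/

set_option autoImplicit false

namespace Cfsg.Agent.H2

theorem sub_one_pow_eq_zero {W : Type*} [AddCommGroup W] {p : ℕ} (hp : p.Prime) (hpW : ∀ w : W, p • w = 0)
    (a : AddMonoid.End W) (ha : a ^ p = 1) : (a + (-1)) ^ p = 0 := by
  have hpEnd : (p : AddMonoid.End W) = 0 := by
    ext w
    rw [AddMonoid.End.natCast_apply, hpW]; rfl
  obtain ⟨r, hr⟩ := (Commute.exists_add_pow_prime_eq hp (x := a) (y := (-1 : AddMonoid.End W)) (Commute.neg_one_right a))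
  rw [hr, ha, hpEnd, zero_mul, zero_mul, zero_mul, add_zero]
  rcases hp.eq_two_or_odd' with h | h
  · have h3 : ((2 : ℕ) : AddMonoid.End W) = 0 := by rw [← h]; exact hpEnd
    rw [h, neg_one_sq]
    have : (1 : AddMonoid.End W) + 1 = ((2 : ℕ) : AddMonoid.End W) := by push_cast; norm_num
    rw [this, h3]
  · rw [h.neg_one_pow]; simp

theorem card_le_ker_pow_mul {W : Type*} [AddCommGroup W] [Finite W] (φ : AddMonoid.End W) (k : ℕ) :
    Nat.card W ≤ (Nat.card {w : W // φ w = 0}) ^ k * Nat.card {y : W // ∃ z, (φ ^ k) z = y} := by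
  induction k with
  | zero =>
    rw [pow_zero, pow_zero, one_mul]
    refine Nat.card_le_card_of_injective (fun w : W => (⟨w, w, rfl⟩ : {y : W // ∃ z, (1 : AddMonoid.End W) z = y})) ?_
    intro x y h
    exact congrArg Subtype.val h
  | succ k ih =>
    refine ih.trans ?_
    rw [pow_succ (Nat.card {w : W // φ w = 0}), mul_assoc]
    apply Nat.mul_le_mul_left
    let R : AddSubgroup W := AddMonoidHom.range (show W →+ W from φ ^ k)
    let ψ : R →+ W := (show W →+ W from φ).comp R.subtype
    have h1 : Nat.card ψ.ker * Nat.card ψ.range = Nat.card R := by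
      have h2 := AddSubgroup.card_mul_index ψ.ker
      rwa [AddSubgroup.index_ker] at h2
    have h2 : Nat.card ψ.range ≤ Nat.card {y : W // ∃ z, (φ ^ (k + 1)) z = y} := by
      refine Nat.card_le_card_of_injective (fun x : ψ.range => (⟨x.1, ?_⟩ : {y : W // ∃ z, (φ ^ (k + 1)) z = y})) ?_
      · obtain ⟨⟨_, z, rfl⟩, h⟩ := x.2
        refine ⟨z, ?_⟩
        rw [pow_succ']; exact h
      · intro x y h
        exact Subtype.ext (Subtype.mk.inj h)
    have h3 : Nat.card ψ.ker ≤ Nat.card {w : W // φ w = 0} := by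
      refine Nat.card_le_card_of_injective (fun x : ψ.ker => (⟨x.1.1, x.2⟩ : {w : W // φ w = 0})) ?_
      intro x y hxy
      have h4 : x.1.1 = y.1.1 := Subtype.mk.inj hxy
      exact Subtype.ext (Subtype.ext h4)
    have h4 : Nat.card {y : W // ∃ z, (φ ^ k) z = y} = Nat.card R := rfl
    rw [h4, ← h1]
    exact Nat.mul_le_mul h3 h2

theorem card_le_fixed_pow {W : Type*} [AddCommGroup W] [Finite W] {p : ℕ} (hp : p.Prime) (hpW : ∀ w : W, p • w = 0)
    (a : AddMonoid.End W) (ha : a ^ p = 1) : Nat.card W ≤ (Nat.card {w : W // a w = w}) ^ p := by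
  have h1 := card_le_ker_pow_mul (a + (-1)) p
  rw [sub_one_pow_eq_zero hp hpW a ha] at h1
  have h2 : Nat.card {y : W // ∃ z, (0 : AddMonoid.End W) z = y} = 1 := by
    rw [Nat.card_eq_one_iff_unique]
    refine ⟨⟨?_⟩, ⟨⟨0, 0, rfl⟩⟩⟩
    rintro ⟨_, z, rfl⟩ ⟨_, z', rfl⟩
    rfl
  rw [h2, mul_one] at h1
  have h3 : Nat.card {w : W // (a + (-1)) w = 0} = Nat.card {w : W // a w = w} := by
    apply Nat.card_congr
    refine Equiv.subtypeEquivRight ?_
    intro w
    have : (a + (-1)) w = a w + - w := rfl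
    rw [this]
    exact add_neg_eq_zero
  rwa [h3] at h1

/-- in a finite `p`-group, a subgroup of index at most `p^d` can be complemented to the top by `d` elements -/
theorem exists_finset_sup_eq_top {V : Type*} [Group V] [Finite V] {p : ℕ} [Fact p.Prime] (hV : IsPGroup p V) :
    ∀ (d : ℕ) (M : Subgroup V), M.index ≤ p ^ d → ∃ S : Finset V, S.card ≤ d ∧ Subgroup.closure (S : Set V) ⊔ M = ⊤ := by
  classical
  have hp : p.Prime := Fact.out
  intro d
  induction d with
  | zero =>
    intro M hM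
    refine ⟨∅, le_rfl, ?_⟩
    rw [pow_zero] at hM
    have : M.index ≠ 0 := Subgroup.index_ne_zero_of_finite
    have h1 : M = ⊤ := Subgroup.index_eq_one.1 (by omega)
    rw [h1, sup_top_eq]
  | succ d ih =>
    intro M hM
    by_cases hMt : M = ⊤
    · exact ⟨∅, by simp, by rw [hMt, sup_top_eq]⟩
    obtain ⟨v, hv⟩ : ∃ v, v ∉ M := by
      by_contra hcon
      push Not at hcon
      exact hMt (eq_top_iff.2 (fun x _ => hcon x))
    set M' := Subgroup.zpowers v ⊔ M with hM'
    have hlt : M < M' := by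
      refine lt_of_le_of_ne le_sup_right ?_
      intro h
      apply hv
      rw [h]
      exact Subgroup.mem_sup_left (Subgroup.mem_zpowers v)
    have h1 : M.relIndex M' * M'.index = M.index := Subgroup.relIndex_mul_index hlt.le
    obtain ⟨m, hm⟩ := IsPGroup.iff_card.1 hV
    have h2 : M.relIndex M' ∣ p ^ m := by
      rw [← hm]
      exact (Subgroup.relIndex_dvd_card _ _).trans (Subgroup.card_subgroup_dvd_card _)
    obtain ⟨l, -, hl⟩ := (Nat.dvd_prime_pow hp).1 h2
    have hl0 : l ≠ 0 := by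
      rintro rfl
      rw [pow_zero, Subgroup.relIndex_eq_one] at hl
      exact hlt.not_ge hl
    have h3 : p ≤ M.relIndex M' := by
      rw [hl]
      exact Nat.le_self_pow hl0 p
    have h4 : M'.index ≤ p ^ d := by
      have h5 : p * M'.index ≤ p * p ^ d := by
        calc p * M'.index ≤ M.relIndex M' * M'.index := Nat.mul_le_mul_right _ h3
          _ = M.index := h1
          _ ≤ p ^ (d + 1) := hM
          _ = p * p ^ d := pow_succ' p d
      exact Nat.le_of_mul_le_mul_left h5 hp.pos
    obtain ⟨S, hS, hS2⟩ := ih M' h4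
    refine ⟨insert v S, (Finset.card_insert_le _ _).trans (by omega), ?_⟩
    rw [Finset.coe_insert, Set.insert_eq, Subgroup.closure_union, ← Subgroup.zpowers_eq_closure, ← hS2, hM']
    rw [← sup_assoc, sup_comm (Subgroup.zpowers v)]

/-- In a finite abelian `p`-group with at most `p^d` elements killed by `p` there is a generating set with at most `d`
elements. -/
theorem exists_generating_of_card_torsion {V : Type*} [CommGroup V] [Finite V] {p : ℕ} [Fact p.Prime] (hV : IsPGroup p V)
    (d : ℕ) (h : Nat.card {v : V // v ^ p = 1} ≤ p ^ d) : ∃ S : Finset V, S.card ≤ d ∧ Subgroup.closure (S : Set V) = ⊤ := by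
  set Ω : Subgroup V := (powMonoidHom p : V →* V).ker with hΩ
  have hΩc : Nat.card {v : V // v ^ p = 1} = Nat.card Ω := rfl
  rw [hΩc] at h
  set R : Subgroup V := (powMonoidHom p : V →* V).range with hR
  have hRi : R.index ≤ p ^ d := by
    have h1 := Subgroup.card_mul_index Ω
    have h2 : Ω.index = Nat.card R := Subgroup.index_ker _
    have h3 := Subgroup.card_mul_index R
    have h4 : Nat.card R * R.index = Nat.card R * Nat.card Ω := by
      rw [h3, ← h2, mul_comm, h1]
    rw [Nat.eq_of_mul_eq_mul_left Nat.card_pos h4]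
    exact h
  obtain ⟨S, hS, hS2⟩ := exists_finset_sup_eq_top hV d R hRi
  refine ⟨S, hS, ?_⟩
  by_contra hne
  obtain ⟨M, hM, hSM⟩ := (eq_top_or_exists_le_coatom (Subgroup.closure (S : Set V))).resolve_left hne
  have hMi : M.index = p := H1.index_of_isCoatom_pgroup hV hM
  have hRM : R ≤ M := by
    rintro _ ⟨x, rfl⟩
    have h1 : (QuotientGroup.mk x : V ⧸ M) ^ p = 1 := by rw [← hMi]; exact pow_card_eq_one'
    rw [← QuotientGroup.mk_pow, QuotientGroup.eq_one_iff] at h1
    exact h1
  exact hM.1 (eq_top_iff.2 (hS2 ▸ sup_le hSM hRM))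

end Cfsg.Agent.H2
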