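import Cfsg.Agent.S0126
import Cfsg.Agent.H1.Class3
import Cfsg.Agent.H2.FusOm
import Mathlib

set_option autoImplicit false

/-! `p`-groups of rank two (helper2). -/

namespace Cfsg.Agent.H2

open Cfsg
open scoped commutatorElement

theorem comm_of_pow_two {R : Type*} [Group R] (h : ∀ x : R, x ^ 2 = 1) (x y : R) : x * y = y * x := by
  have h1 : ∀ x : R, x⁻¹ = x := fun x => inv_eq_of_mul_eq_one_left (by rw [← pow_two]; exact h x)
  calc x * y = (x * y)⁻¹ := (h1 _).symm
    _ = y⁻¹ * x⁻¹ := mul_inv_rev x y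
    _ = y * x := by rw [h1, h1]

theorem closure_three_comm {R : Type*} [Group R] {x y z : R} (hxy : x * y = y * x) (hxz : x * z = z * x) (hyz : y * z = z * y) :
    ∀ a ∈ Subgroup.closure {x, y, z}, ∀ b ∈ Subgroup.closure {x, y, z}, a * b = b * a := by
  have h1 : ∀ a ∈ ({x, y, z} : Set R), ∀ b ∈ ({x, y, z} : Set R), a * b = b * a := by
    rintro a (rfl | rfl | rfl) b (rfl | rfl | rfl)
    · rfl
    · exact hxy
    · exact hxz
    · exact hxy.symm
    · rfl
    · exact hyz
    · exact hxz.symm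
    · exact hyz.symm
    · rfl
  intro a ha b hb
  have h2 := Subgroup.closureCommGroupOfComm h1
  have := (Subgroup.closureCommGroupOfComm h1).mul_comm ⟨a, ha⟩ ⟨b, hb⟩
  exact congrArg Subtype.val this

theorem card_le_of_rank_two {R : Type*} [Group R] [Finite R] {p : ℕ} [hpf : Fact p.Prime] (hR : IsPGroup p R)
    (hrank : ∀ A : Subgroup R, IsMulCommutative A → (∀ a ∈ A, a ^ p = 1) → Nat.card A ≤ p ^ 2) (hexp : ∀ x : R, x ^ p = 1) :
    Nat.card R ≤ p ^ 3 := by
  classical
  have hpp : p.Prime := hpf.out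
  have h23 : p ^ 2 ≤ p ^ 3 := Nat.pow_le_pow_right hpp.pos (by norm_num)
  by_cases hcomm : ∀ a b : R, a * b = b * a
  · have h1 := hrank ⊤ ⟨⟨fun a b => Subtype.ext (hcomm a b)⟩⟩ (fun a _ => hexp a)
    rw [Subgroup.card_top] at h1
    exact h1.trans h23
  have hp2 : p ≠ 2 := by
    rintro rfl
    exact hcomm (comm_of_pow_two hexp)
  have hnc : ¬ IsCyclic R := by
    intro h
    apply hcomm
    letI := IsCyclic.commGroup (α := R)
    exact fun a b => mul_comm a b
  obtain ⟨E, hEn, hE, hEc⟩ := S0126.result hp2 hR hnc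
  have hEne : E ≠ ⊥ := by
    rintro rfl
    rw [Subgroup.card_bot] at hEc
    exact (Nat.one_lt_pow (by norm_num) hpp.one_lt).ne hEc
  haveI : Group.IsNilpotent R := hR.isNilpotent
  obtain ⟨z, hz, hz1⟩ := (Subgroup.ne_bot_iff_exists_ne_one).1 (H1.inf_center_ne_bot E hEne) |>.imp (fun z h => h) |> fun ⟨z, hz⟩ =>
    (⟨(z : R), z.2, fun h => hz (Subtype.ext h)⟩ : ∃ z : R, z ∈ E ⊓ Subgroup.center R ∧ z ≠ 1)
  have hzc : ∀ a : R, a * z = z * a := Subgroup.mem_center_iff.1 hz.2
  have hzo : orderOf z = p := orderOf_eq_prime (hexp z) hz1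
  obtain ⟨y, hyE, hyz⟩ : ∃ y ∈ E, y ∉ Subgroup.zpowers z := by
    by_contra hcon
    push Not at hcon
    have h1 : Nat.card E ≤ Nat.card ↥(Subgroup.zpowers z) := Subgroup.card_le_of_le hcon
    rw [hEc, Nat.card_zpowers, hzo] at h1
    have : p ^ 1 < p ^ 2 := Nat.pow_lt_pow_right hpp.one_lt (by norm_num)
    rw [pow_one] at this
    omega
  have hstab : ∀ x : R, x * y = y * x → x ∈ E := by
    intro x hx
    set K := Subgroup.closure {x, y, z} with hK
    have hKc := closure_three_comm hx (hzc x) (hzc y)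
    have hcK := hrank K ⟨⟨fun a b => Subtype.ext (hKc a a.2 b b.2)⟩⟩ (fun a _ => hexp a)
    have hyK : y ∈ K := Subgroup.subset_closure (by simp)
    have hzK : z ∈ K := Subgroup.subset_closure (by simp)
    have hxK : x ∈ K := Subgroup.subset_closure (by simp)
    have hEK : E ≤ K := by
      have h1 : Subgroup.zpowers z ≤ K ⊓ E := by
        rw [Subgroup.zpowers_le]; exact ⟨hzK, hz.1⟩
      have h2 : Subgroup.zpowers z < K ⊓ E := lt_of_le_of_ne h1 (fun h => hyz (h ▸ ⟨hyK, hyE⟩))
      have h3 : Nat.card ↥(K ⊓ E : Subgroup R) ∣ p ^ 2 := by rw [← hEc]; exact Subgroup.card_dvd_of_le inf_le_right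
      obtain ⟨k, hk, hk'⟩ := (Nat.dvd_prime_pow hpp).1 h3
      have h4 : p < Nat.card ↥(K ⊓ E : Subgroup R) := by
        rw [← hzo, ← Nat.card_zpowers]
        exact lt_of_le_of_ne (Subgroup.card_le_of_le h1) (fun h => h2.ne (Subgroup.eq_of_le_of_card_ge h1 h.ge))
      have h5 : k = 2 := by
        by_contra hne
        have : p ^ k ≤ p ^ 1 := Nat.pow_le_pow_right hpp.pos (by omega)
        rw [pow_one] at this
        omega
      have h6 : K ⊓ E = E := Subgroup.eq_of_le_of_card_ge inf_le_right (by rw [hk', h5, hEc])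
      rw [← h6]; exact inf_le_left
    have h1 : E = K := Subgroup.eq_of_le_of_card_ge hEK (by rw [hEc]; exact hcK)
    rw [h1]; exact hxK
  -- orbit count
  have h1 : (MulAction.stabilizer (ConjAct R) y).index = (MulAction.orbit (ConjAct R) y).ncard := MulAction.index_stabilizer _ _
  have h2 : (MulAction.orbit (ConjAct R) y) ⊆ (E : Set R) \ {1} := by
    rintro _ ⟨g, rfl⟩
    refine ⟨?_, ?_⟩
    · show g • y ∈ E
      rw [ConjAct.smul_def]
      exact hEn.conj_mem y hyE _
    · intro h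
      rw [Set.mem_singleton_iff] at h
      change g • y = 1 at h
      rw [smul_eq_iff_eq_inv_smul, smul_one] at h
      exact hyz (by rw [h]; exact Subgroup.one_mem _)
  have h3 : (MulAction.orbit (ConjAct R) y).ncard < p ^ 2 := by
    calc (MulAction.orbit (ConjAct R) y).ncard ≤ ((E : Set R) \ {1}).ncard := Set.ncard_le_ncard h2 (Set.toFinite _)
      _ < (E : Set R).ncard := Set.ncard_lt_ncard (Set.sdiff_singleton_ssubset.2 E.one_mem) (Set.toFinite _)
      _ = p ^ 2 := by rw [← hEc]; rfl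
  have hCR : IsPGroup p (ConjAct R) := hR
  haveI : Finite (ConjAct R) := ‹Finite R›
  obtain ⟨n, hn⟩ := IsPGroup.iff_card.1 hCR
  have h4 : (MulAction.stabilizer (ConjAct R) y).index ∣ p ^ n := by rw [← hn]; exact Subgroup.index_dvd_card _
  obtain ⟨k, hk, hk'⟩ := (Nat.dvd_prime_pow hpp).1 h4
  have h5 : k ≤ 1 := by
    rw [← h1, hk'] at h3
    have := (Nat.pow_lt_pow_iff_right hpp.one_lt).1 h3
    omega
  have h6 : Nat.card ↥(MulAction.stabilizer (ConjAct R) y) ≤ p ^ 2 := by
    rw [← hEc]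
    refine Nat.card_le_card_of_injective (fun g : ↥(MulAction.stabilizer (ConjAct R) y) => (⟨ConjAct.ofConjAct g.1, ?_⟩ : E)) ?_
    · apply hstab
      have h7 := g.2
      rw [MulAction.mem_stabilizer_iff, ConjAct.smul_def] at h7
      calc ConjAct.ofConjAct (g : ConjAct R) * y = (ConjAct.ofConjAct (g : ConjAct R) * y * (ConjAct.ofConjAct (g : ConjAct R))⁻¹) *
            ConjAct.ofConjAct (g : ConjAct R) := by group
        _ = _ := by rw [h7]
    · intro a b hab
      exact Subtype.ext (congrArg (fun w : E => (w : R)) hab)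
  have h7 : Nat.card R = Nat.card ↥(MulAction.stabilizer (ConjAct R) y) * (MulAction.stabilizer (ConjAct R) y).index :=
    (Subgroup.card_mul_index _).symm
  rw [h7, hk']
  calc Nat.card ↥(MulAction.stabilizer (ConjAct R) y) * p ^ k ≤ p ^ 2 * p ^ 1 := Nat.mul_le_mul h6 (Nat.pow_le_pow_right hpp.pos h5)
    _ = p ^ 3 := by ring

theorem comm_of_card_le_sq {Q : Type*} [Group Q] [Finite Q] {p : ℕ} [hpf : Fact p.Prime] (hQ : IsPGroup p Q)
    (h : Nat.card Q ≤ p ^ 2) (a b : Q) : a * b = b * a := by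
  have hpp : p.Prime := hpf.out
  obtain ⟨k, hk⟩ := IsPGroup.iff_card.1 hQ
  have hk2 : k ≤ 2 := by
    rw [hk] at h
    exact (Nat.pow_le_pow_iff_right hpp.one_lt).1 h
  have : k = 0 ∨ k = 1 ∨ k = 2 := by omega
  rcases this with rfl | rfl | rfl
  · haveI := (Nat.card_eq_one_iff_unique.1 (by rw [hk, pow_zero])).1
    exact Subsingleton.elim _ _
  · haveI := isCyclic_of_prime_card (p := p) (by rw [hk, pow_one])
    letI := IsCyclic.commGroup (α := Q)
    exact mul_comm a b
  · exact IsPGroup.commutative_of_card_eq_prime_sq hk a b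

theorem card_quot_center {R : Type*} [Group R] [Finite R] {p : ℕ} [hpf : Fact p.Prime] (hR : IsPGroup p R) {n : ℕ}
    (h : Nat.card R ≤ p ^ (n + 1)) (hn : 0 < n): Nat.card (R ⧸ Subgroup.center R) ≤ p ^ n := by
  have hpp : p.Prime := hpf.out
  rcases subsingleton_or_nontrivial R with hs | hnt
  · have h1 : Nat.card (R ⧸ Subgroup.center R) ≤ Nat.card R := Nat.card_le_card_of_surjective _ (QuotientGroup.mk'_surjective _)
    have h2 : Nat.card R ≤ 1 := Finite.card_le_one_iff_subsingleton.2 hs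
    exact (h1.trans h2).trans (Nat.one_le_pow _ _ hpp.pos)
  · have h1 := Subgroup.card_eq_card_quotient_mul_card_subgroup (Subgroup.center R)
    have h2 : p ≤ Nat.card (Subgroup.center R) := by
      haveI := hR.center_nontrivial
      obtain ⟨k, hk, hk'⟩ := (hR.to_subgroup (Subgroup.center R)).nontrivial_iff_card.1 this
      rw [hk']
      exact Nat.le_self_pow hk.ne' p
    have h3 : Nat.card (R ⧸ Subgroup.center R) * p ≤ p ^ n * p := by
      calc Nat.card (R ⧸ Subgroup.center R) * p ≤ Nat.card (R ⧸ Subgroup.center R) * Nat.card (Subgroup.center R) :=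
            Nat.mul_le_mul_left _ h2
        _ = Nat.card R := h1.symm
        _ ≤ p ^ (n + 1) := h
        _ = p ^ n * p := pow_succ p n
    exact Nat.le_of_mul_le_mul_right h3 hpp.pos

theorem class_three_of_card {R : Type*} [Group R] [Finite R] {p : ℕ} [hpf : Fact p.Prime] (hR : IsPGroup p R)
    (h : Nat.card R ≤ p ^ 4) (a b c d : R) : ⁅⁅⁅a, b⁆, c⁆, d⁆ = 1 := by
  have h1 := card_quot_center hR (n := 3) h (by norm_num)
  have hQ : IsPGroup p (R ⧸ Subgroup.center R) := hR.to_quotient _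
  have h2 := card_quot_center hQ (n := 2) h1 (by norm_num)
  have hQ2 : IsPGroup p ((R ⧸ Subgroup.center R) ⧸ Subgroup.center (R ⧸ Subgroup.center R)) := hQ.to_quotient _
  have h3 := comm_of_card_le_sq hQ2 h2
  let π := QuotientGroup.mk' (Subgroup.center R)
  let π2 := QuotientGroup.mk' (Subgroup.center (R ⧸ Subgroup.center R))
  have h4 : ⁅π a, π b⁆ ∈ Subgroup.center (R ⧸ Subgroup.center R) := by
    have h5 : π2 ⁅π a, π b⁆ = 1 := by
      rw [map_commutatorElement, commutatorElement_eq_one_iff_mul_comm]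
      exact h3 _ _
    exact (QuotientGroup.eq_one_iff _).1 h5
  have h5 : ⁅⁅a, b⁆, c⁆ ∈ Subgroup.center R := by
    have h6 : π ⁅⁅a, b⁆, c⁆ = 1 := by
      rw [map_commutatorElement, map_commutatorElement, commutatorElement_eq_one_iff_mul_comm]
      exact (Subgroup.mem_center_iff.1 h4 (π c)).symm
    exact (QuotientGroup.eq_one_iff _).1 h6
  rw [commutatorElement_eq_one_iff_mul_comm]
  exact (Subgroup.mem_center_iff.1 h5 d).symm

theorem omega_mul_of_rank_two {p : ℕ} [hpf : Fact p.Prime] (hp : 3 < p) (n : ℕ) : ∀ (R : Type*) [Group R] [Finite R]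
    (_ : IsPGroup p R) (_ : ∀ A : Subgroup R, IsMulCommutative A → (∀ a ∈ A, a ^ p = 1) → Nat.card A ≤ p ^ 2),
    Nat.card R = n → ∀ x y : R, x ^ p = 1 → y ^ p = 1 → (x * y) ^ p = 1 := by
  induction n using Nat.strong_induction_on with
  | _ n ih =>
  intro R _ _ hR hrk hn x y hx hy
  have hpp : p.Prime := hpf.out
  -- rank of subgroups
  have hrk' : ∀ M : Subgroup R, ∀ A : Subgroup M, IsMulCommutative A → (∀ a ∈ A, a ^ p = 1) → Nat.card A ≤ p ^ 2 := by
    intro M A hA hAp
    have h1 := hrk (A.map M.subtype) ⟨⟨by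
      rintro ⟨_, a, ha, rfl⟩ ⟨_, b, hb, rfl⟩
      have := congrArg (fun z : A => ((z : M) : R)) (hA.is_comm.comm ⟨a, ha⟩ ⟨b, hb⟩)
      exact Subtype.ext this⟩⟩ (by
      rintro _ ⟨a, ha, rfl⟩
      have := congrArg Subtype.val (hAp a ha)
      simpa using this)
    rwa [← Nat.card_congr (Subgroup.equivMapOfInjective A M.subtype M.subtype_injective).toEquiv] at h1
  have hsub : ∀ M : Subgroup R, M ≠ ⊤ → ∀ a ∈ M, ∀ b ∈ M, a ^ p = 1 → b ^ p = 1 → (a * b) ^ p = 1 := by
    intro M hM a ha b hb hap hbp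
    have hlt : Nat.card M < n := by
      rw [← hn]
      exact lt_of_le_of_ne (Subgroup.card_le_card_group M) (fun h' => hM (Subgroup.eq_top_of_card_eq M h'))
    have h1 := ih _ hlt M (hR.to_subgroup M) (hrk' M) rfl ⟨a, ha⟩ ⟨b, hb⟩ (Subtype.ext (by simpa using hap))
      (Subtype.ext (by simpa using hbp))
    simpa using congrArg Subtype.val h1
  by_cases hcl : Subgroup.closure {x, y} = ⊤
  swap
  · exact hsub _ hcl x (Subgroup.subset_closure (by simp)) y (Subgroup.subset_closure (by simp)) hx hy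
  by_cases hyt : Subgroup.zpowers y = ⊤
  · have hxy : x ∈ Subgroup.zpowers y := by rw [hyt]; exact Subgroup.mem_top _
    obtain ⟨k, rfl⟩ := Subgroup.mem_zpowers_iff.1 hxy
    have hc : Commute (y ^ k) y := (Commute.refl y).zpow_left k
    rw [hc.mul_pow, hx, hy, one_mul]
  obtain ⟨M, hM, hyM⟩ := (eq_top_or_exists_le_coatom (Subgroup.zpowers y)).resolve_left hyt
  haveI : Group.IsNilpotent R := hR.isNilpotent
  haveI hMn : M.Normal := Subgroup.NormalizerCondition.normal_of_coatom M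
      Group.normalizerCondition_of_isNilpotent hM
  let O : Subgroup R :=
    { carrier := {m | m ∈ M ∧ m ^ p = 1}
      one_mem' := ⟨M.one_mem, one_pow p⟩
      mul_mem' := fun {a b} ha hb => ⟨M.mul_mem ha.1 hb.1, hsub M hM.1 a ha.1 b hb.1 ha.2 hb.2⟩
      inv_mem' := fun {a} ha => ⟨M.inv_mem ha.1, by rw [inv_pow, ha.2, inv_one]⟩ }
  have hOn : O.Normal := ⟨fun a ha g => ⟨hMn.conj_mem a ha.1 g, by rw [conj_pow, ha.2]; group⟩⟩
  have hOc : Nat.card O ≤ p ^ 3 := card_le_of_rank_two (hR.to_subgroup O) (hrk' O) (fun a => Subtype.ext (by simpa using a.2.2))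
  have htop : Subgroup.zpowers x ⊔ O = ⊤ := by
    rw [eq_top_iff, ← hcl, Subgroup.closure_le]
    rintro a (rfl | ha)
    · exact (le_sup_left : Subgroup.zpowers a ≤ _) (Subgroup.mem_zpowers a)
    · rw [Set.mem_singleton_iff] at ha
      subst ha
      exact (le_sup_right : O ≤ _) ⟨hyM (Subgroup.mem_zpowers a), hy⟩
  have hcR : Nat.card R ≤ p ^ 4 := by
    have h1 : Function.Surjective (fun q : Subgroup.zpowers x × O => (q.1 : R) * q.2) := by
      intro r
      have hr : r ∈ Subgroup.zpowers x ⊔ O := by rw [htop]; exact Subgroup.mem_top _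
      rw [Subgroup.mem_sup_of_normal_right] at hr
      obtain ⟨a, ha, b, hb, rfl⟩ := hr
      exact ⟨(⟨a, ha⟩, ⟨b, hb⟩), rfl⟩
    have h2 := Nat.card_le_card_of_surjective _ h1
    rw [Nat.card_prod] at h2
    have h3 : Nat.card (Subgroup.zpowers x) ≤ p := by
      rw [Nat.card_zpowers]
      exact Nat.le_of_dvd hpp.pos (orderOf_dvd_of_pow_eq_one hx)
    calc Nat.card R ≤ Nat.card (Subgroup.zpowers x) * Nat.card O := h2
      _ ≤ p * p ^ 3 := Nat.mul_le_mul h3 hOc
      _ = p ^ 4 := by ring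
  exact H1.pow_prime_closure_class_three _ R hp hR (class_three_of_card hR hcR) rfl x y hx hy

end Cfsg.Agent.H2
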