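import Mathlib
import Cfsg.Prelude.Def_Local
import Cfsg.Agent.L0.Core
import Cfsg.Agent.H6.PSolvC
import Cfsg.Agent.H2.ActStab

set_option autoImplicit false
open Cfsg

namespace Cfsg.Agent.H2

open Cfsg.Agent.L0

variable {G : Type*} [Group G] [Finite G] {p : ℕ}

theorem upper_odd (k : ℕ) : (upperPSeries p G (2 * k + 1)).1 =
    (pPrimeCore p (G ⧸ (upperPSeries p G (2 * k)).1)).comap (QuotientGroup.mk' (upperPSeries p G (2 * k)).1) := by
  have h : Even (2 * k) := even_two_mul k
  rw [upperPSeries]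
  simp only [if_pos h]

theorem upper_even (k : ℕ) : (upperPSeries p G (2 * k + 2)).1 =
    (pCore p (G ⧸ (upperPSeries p G (2 * k + 1)).1)).comap (QuotientGroup.mk' (upperPSeries p G (2 * k + 1)).1) := by
  have h : ¬ Even (2 * k + 1) := by simp
  rw [upperPSeries]
  simp only [if_neg h]

theorem core_bot_of_comap {U V : Subgroup G} [U.Normal] [V.Normal] (hV : V = (pPrimeCore p (G ⧸ U)).comap (QuotientGroup.mk' U)) :
    pPrimeCore p (G ⧸ V) = ⊥ := by
  have hUV : U ≤ V := by
    rw [hV]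
    intro x hx
    rw [Subgroup.mem_comap]
    have : QuotientGroup.mk' U x = 1 := (QuotientGroup.eq_one_iff x).mpr hx
    rw [this]; exact one_mem _
  have hmap : V.map (QuotientGroup.mk' U) = pPrimeCore p (G ⧸ U) := by
    rw [hV, Subgroup.map_comap_eq_self_of_surjective (QuotientGroup.mk'_surjective _)]
  let e1 : ((G ⧸ U) ⧸ pPrimeCore p (G ⧸ U)) ≃* ((G ⧸ U) ⧸ V.map (QuotientGroup.mk' U)) :=
    QuotientGroup.quotientMulEquivOfEq hmap.symm
  let e := e1.trans (QuotientGroup.quotientQuotientEquivQuotient U V hUV)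
  have h1 := pPrimeCore_map_equiv p e
  rw [pPrimeCore_quotient_pPrimeCore, Subgroup.map_bot] at h1
  exact h1.symm

theorem core_bot_upper (k : ℕ) : pPrimeCore p (G ⧸ (upperPSeries p G (2 * k + 1)).1) = ⊥ := core_bot_of_comap (upper_odd k)

theorem cent_upper [hp : Fact p.Prime] (hs : IsPSolvable p G) (k : ℕ) :
    Subgroup.centralizer (pCore p (G ⧸ (upperPSeries p G (2 * k + 1)).1) : Set (G ⧸ (upperPSeries p G (2 * k + 1)).1)) ≤
      pCore p (G ⧸ (upperPSeries p G (2 * k + 1)).1) :=
  H6.psolv_cent_le hp.out (psolvable_surj hs _ (QuotientGroup.mk'_surjective _)) (core_bot_upper k)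

theorem upper_le_succ (n : ℕ) : (upperPSeries p G n).1 ≤ (upperPSeries p G (n + 1)).1 := by
  rw [upperPSeries]
  intro x hx
  have : QuotientGroup.mk' (upperPSeries p G n).1 x = 1 := (QuotientGroup.eq_one_iff x).mpr hx
  split_ifs
  · show x ∈ Subgroup.comap _ _
    rw [Subgroup.mem_comap, this]; exact one_mem _
  · show x ∈ Subgroup.comap _ _
    rw [Subgroup.mem_comap, this]; exact one_mem _

theorem map_upper (k : ℕ) : (upperPSeries p G (2 * k + 2)).1.map (QuotientGroup.mk' (upperPSeries p G (2 * k + 1)).1) =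
    pCore p (G ⧸ (upperPSeries p G (2 * k + 1)).1) := by
  rw [upper_even, Subgroup.map_comap_eq_self_of_surjective (QuotientGroup.mk'_surjective _)]

end Cfsg.Agent.H2
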